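import Cfsg.Agent.H10.Co2Mult.Data

/-! Kernel check of a block of program entries. -/

set_option autoImplicit false
set_option maxRecDepth 100000

namespace Cfsg.Agent.H10.Co2Mult

open Cfsg.Agent.H16

theorem slp_block4 : allFrom (fun k => ctx.slpOk k) 128 512 = true := by decide +kernel

end Cfsg.Agent.H10.Co2Mult
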