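import Cfsg.Agent.H10.Co2Mult.Two
import Cfsg.Agent.H10.Co2Mult.Three
import Cfsg.Agent.H10.Co2Mult.Five
import Cfsg.Agent.H10.Co2Mult.Slp0
import Cfsg.Agent.H10.Co2Mult.Slp1
import Cfsg.Agent.H10.Co2Mult.Slp2
import Cfsg.Agent.H10.Co2Mult.Slp3
import Cfsg.Agent.H10.Co2Mult.Slp4
import Cfsg.Agent.H10.Co2Mult.Slp5
import Cfsg.Agent.H10.Co2Mult.Slp6
import Cfsg.Agent.H10.Co2Mult.Slp7
import Cfsg.Agent.H13.SylMult.Mult
import Cfsg.Agent.H15.Out.Co2Model

/-!
The Schur multiplier of the second Conway group is trivial.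
-/

set_option autoImplicit false
set_option maxRecDepth 100000

namespace Cfsg.Agent.H10.Co2Mult

open Cfsg Equiv Cfsg.Agent.H16 Cfsg.Agent.H36 Cfsg.Agent.H13.SylMult

theorem ctx_len : ctx.gens.length = 3 := by decide +kernel

/-- The generators on the 2300 points. -/
noncomputable def σG : Fin ctx.gens.length → Perm (Fin ctx.n) :=
  fun c => H15.Out.Co2.gen (Fin.cast (ctx_len.trans H15.Out.Co2.gens_length.symm) c)

theorem genTab_eq : H15.Out.Co2.genTab = genTab := rfl

theorem σG_rep (c : Fin ctx.gens.length) : ctx.Rep (σG c) (getN ctx.gens c) := fun x => by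
  have h := H15.Out.Co2.gen_rep (Fin.cast (ctx_len.trans H15.Out.Co2.gens_length.symm) c) x
  exact h

theorem card_closure : Nat.card (Subgroup.closure (Set.range σG)) = 42305421312000 :=
  H15.Out.Co2.card_grp

theorem allFrom_of_forall {p : ℕ → Bool} : ∀ (n lo : ℕ),
    (∀ k, lo ≤ k → k < lo + n → p k = true) → allFrom p n lo = true
  | 0, _, _ => rfl
  | n + 1, lo, h => by
    rw [allFrom_succ, h lo le_rfl (by omega),
      allFrom_of_forall n (lo + 1) fun k h1 h2 => h k (by omega) (by omega)]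
    rfl

theorem slp_ok : allFrom ctx.slpOk ctx.ns 0 = true := by
  have h := allFrom_extend (allFrom_extend (allFrom_extend (allFrom_extend (allFrom_extend
    (allFrom_extend (allFrom_extend (allFrom_extend allFrom_nil slp_block0) slp_block1) slp_block2)
    slp_block3) slp_block4) slp_block5) slp_block6) slp_block7
  exact allFrom_of_forall _ _ fun k _ hk => h k (Nat.lt_of_lt_of_eq hk (by decide +kernel))

theorem perm2_ok : perm2.ok pc2 cert2 = true := by
  have h := small2_ok
  simp only [Bool.and_eq_true] at h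
  simp only [PermData.ok, rels2_ok, sep2_ok, conj2_ok, h.1.1, h.1.2, h.2, Bool.and_true,
    show allFrom perm2.ctx.slpOk perm2.ctx.ns 0 = true from slp_ok]

theorem perm3_ok : perm3.ok pc3 cert3 = true := by
  have h := small3_ok
  simp only [Bool.and_eq_true] at h
  simp only [PermData.ok, rels3_ok, sep3_ok, conj3_ok, h.1.1, h.1.2, h.2, Bool.and_true,
    show allFrom perm3.ctx.slpOk perm3.ctx.ns 0 = true from slp_ok]

theorem perm5_ok : perm5.ok pc5 cert5 = true := by
  have h := small5_ok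
  simp only [Bool.and_eq_true] at h
  simp only [PermData.ok, rels5_ok, sep5_ok, conj5_ok, h.1.1, h.1.2, h.2, Bool.and_true,
    show allFrom perm5.ctx.slpOk perm5.ctx.ns 0 = true from slp_ok]

theorem card_ker_dvd_one (Δ : Type) [Group Δ] [Finite Δ]
    (τ : Δ →* Subgroup.closure (Set.range σG)) (hτ : Cfsg.IsStemExtension τ) : Nat.card τ.ker ∣ 1 := by
  obtain ⟨E2, F2, h2⟩ := groupFacts (R := perm2) (D := pc2) (C := cert2) σG σG_rep perm2_ok
    (by decide +kernel) (show Nat.Prime 2 by norm_num) pc2_ok rows2_ok (by decide +kernel)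
  obtain ⟨E3, F3, h3⟩ := groupFacts (R := perm3) (D := pc3) (C := cert3) σG σG_rep perm3_ok
    (by decide +kernel) (show Nat.Prime 3 by norm_num) pc3_ok rows3_ok (by decide +kernel)
  obtain ⟨E5, F5, h5⟩ := groupFacts (R := perm5) (D := pc5) (C := cert5) σG σG_rep perm5_ok
    (by decide +kernel) (show Nat.Prime 5 by norm_num) pc5_ok rows5_ok (by decide +kernel)
  have b2 := factorization_ker_le hτ (show Nat.Prime 2 by norm_num) pc2_ok rows2_ok combos2_ok h2
    (factorization_eq (a := 18) (b := 161382375) (by norm_num : Nat.Prime 2) (by rw [card_closure]; rfl)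
      (show ¬ (2 : ℕ) ∣ 161382375 by norm_num))
  have b3 := factorization_ker_le hτ (show Nat.Prime 3 by norm_num) pc3_ok rows3_ok combos3_ok h3
    (factorization_eq (a := 6) (b := 58032128000) (by norm_num : Nat.Prime 3) (by rw [card_closure]; rfl)
      (show ¬ (3 : ℕ) ∣ 58032128000 by norm_num))
  have b5 := factorization_ker_le hτ (show Nat.Prime 5 by norm_num) pc5_ok rows5_ok combos5_ok h5
    (factorization_eq (a := 3) (b := 338443370496) (by norm_num : Nat.Prime 5) (by rw [card_closure]; rfl)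
      (show ¬ (5 : ℕ) ∣ 338443370496 by norm_num))
  refine card_ker_dvd hτ one_ne_zero [2, 3, 5] (fun p hp => ?_) (fun p hp hn => ?_)
  · simp only [List.mem_cons, List.not_mem_nil, or_false] at hp
    rcases hp with rfl | rfl | rfl
    · exact b2.trans (Nat.zero_le _)
    · exact b3.trans (Nat.zero_le _)
    · exact b5.trans (Nat.zero_le _)
  · rw [card_closure]
    simp only [List.mem_cons, List.not_mem_nil, or_false, not_or] at hn
    by_contra hlt
    have hd : p ^ 2 ∣ 2 ^ 18 * (3 ^ 6 * (5 ^ 3 * (7 * (11 * 23)))) := by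
      refine (pow_dvd_pow p (by omega : 2 ≤ (42305421312000 : ℕ).factorization p)).trans ?_
      norm_num
      exact Nat.ordProj_dvd 42305421312000 p
    have cop : ∀ q k, q.Prime → p ≠ q → Nat.Coprime (p ^ 2) (q ^ k) := fun q k hq hne =>
      Nat.Coprime.pow 2 k ((Nat.coprime_primes hp hq).2 hne)
    have h1 := (cop 2 18 Nat.prime_two hn.1).dvd_of_dvd_mul_left hd
    have h2 := (cop 3 6 Nat.prime_three hn.2.1).dvd_of_dvd_mul_left h1
    have h3 := (cop 5 3 (by norm_num) hn.2.2).dvd_of_dvd_mul_left h2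
    rcases (Nat.Prime.dvd_mul hp).1 ((dvd_pow_self p two_ne_zero).trans h3) with h | h
    · rw [(Nat.prime_dvd_prime_iff_eq hp (by norm_num)).1 h] at h3; norm_num at h3
    · rcases (Nat.Prime.dvd_mul hp).1 h with h | h
      · rw [(Nat.prime_dvd_prime_iff_eq hp (by norm_num)).1 h] at h3; norm_num at h3
      · rw [(Nat.prime_dvd_prime_iff_eq hp (by norm_num)).1 h] at h3; norm_num at h3

theorem mult_Co2 : Cfsg.HasCyclicSchurMultiplier ↥Spor.Co2 1 := by
  obtain ⟨e⟩ := H15.Out.Co2.nonempty_equiv_G0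
  obtain ⟨e'⟩ := H15.Out.Co2.setting_eq.2
  have e'' : ↥Spor.Co2 ≃* ↥(Subgroup.closure (Set.range σG)) := e.trans e'
  haveI : Finite (Subgroup.closure (Set.range σG)) :=
    Nat.finite_of_card_ne_zero (by rw [card_closure]; norm_num)
  refine H82.HasSchurMultiplier.of_mulEquiv (H82.hasCyclicSchurMultiplier_one_iff.mpr
    fun Δ _ _ τ hτ => ?_) e''.symm
  refine (MonoidHom.ker_eq_bot_iff τ).1 (Subgroup.eq_bot_of_card_eq _ ?_)
  exact Nat.dvd_one.1 (card_ker_dvd_one Δ τ hτ)

end Cfsg.Agent.H10.Co2Mult
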