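import Cfsg.Agent.H13.SylMult.Bound
import Cfsg.Agent.H10.Co2Mult.Data

/-! Row checks of the certificate at 2, split into blocks. -/

set_option autoImplicit false

namespace Cfsg.Agent.H10.Co2Mult

open Cfsg.Agent.H13.SylMult

/-- The check of row `i` at 2. -/
def rowChk (i : Nat) : Bool := eqnOk pc2 cert2 (cert2.eqns.getD i (.assoc [] [])) (cert2.rows.getD i [])

end Cfsg.Agent.H10.Co2Mult
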