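import Cfsg.Agent.H13.SylMult.Bound
import Cfsg.Agent.H10.Co2Mult.Data

/-! The checks of the certificate at 2 for Co2. -/

set_option autoImplicit false
set_option maxRecDepth 100000
set_option maxHeartbeats 4000000

namespace Cfsg.Agent.H10.Co2Mult

open Cfsg.Agent.H13.SylMult

theorem rels2_ok : perm2.relsOk pc2 = true := by decide +kernel

theorem conj2_ok : cert2.eqns.all perm2.conjOk = true := by decide +kernel

end Cfsg.Agent.H10.Co2Mult
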