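import Cfsg.Agent.H13.SylMult.Bound
import Cfsg.Agent.H10.Co2Mult.RowsDef

/-! The checks of the certificate at 2 for Co2. -/

set_option autoImplicit false
set_option maxRecDepth 100000
set_option maxHeartbeats 4000000

namespace Cfsg.Agent.H10.Co2Mult

open Cfsg.Agent.H13.SylMult

theorem rows2_block40 : Cfsg.Agent.H16.allFrom rowChk 10 40 = true := by decide +kernel

theorem rows2_block50 : Cfsg.Agent.H16.allFrom rowChk 10 50 = true := by decide +kernel

theorem rows2_block60 : Cfsg.Agent.H16.allFrom rowChk 10 60 = true := by decide +kernel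

theorem rows2_block70 : Cfsg.Agent.H16.allFrom rowChk 10 70 = true := by decide +kernel

end Cfsg.Agent.H10.Co2Mult
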