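import Cfsg.Agent.H10.Co2Mult.TwoRows
import Cfsg.Agent.H10.Co2Mult.TwoRows0
import Cfsg.Agent.H10.Co2Mult.TwoRows1
import Cfsg.Agent.H10.Co2Mult.TwoRows2
import Cfsg.Agent.H10.Co2Mult.TwoRows3
import Cfsg.Agent.H10.Co2Mult.TwoCombos
import Cfsg.Agent.H10.Co2Mult.TwoRels
import Cfsg.Agent.H10.Co2Mult.TwoSep

/-! The checks of the certificate at 2 for Co2. -/

set_option autoImplicit false
set_option maxRecDepth 100000

namespace Cfsg.Agent.H10.Co2Mult

open Cfsg.Agent.H13.SylMult Cfsg.Agent.H16

theorem rows2_ok : cert2.rowsOk pc2 = true := by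
  have h : ∀ i, i < 153 → rowChk i = true := fun i hi => (allFrom_extend (allFrom_extend (allFrom_extend (allFrom_extend (allFrom_extend (allFrom_extend (allFrom_extend (allFrom_extend (allFrom_extend (allFrom_extend (allFrom_extend (allFrom_extend (allFrom_extend (allFrom_extend (allFrom_extend (allFrom_extend allFrom_nil rows2_block0) rows2_block10) rows2_block20) rows2_block30) rows2_block40) rows2_block50) rows2_block60) rows2_block70) rows2_block80) rows2_block90) rows2_block100) rows2_block110) rows2_block120) rows2_block130) rows2_block140) rows2_block150) i (by omega)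
  have hl : cert2.eqns.length = 153 ∧ cert2.rows.length = 153 := by decide +kernel
  rw [Cert.rowsOk, Bool.and_eq_true]
  refine ⟨by rw [hl.1, hl.2]; rfl, List.all_eq_true.2 fun qr hqr => ?_⟩
  obtain ⟨i, hi, rfl⟩ := List.getElem_of_mem hqr
  have hi' : i < 153 := by rw [List.length_zip, hl.1, hl.2] at hi; omega
  have h2 := h i hi'
  rw [rowChk, List.getD_eq_getElem _ _ (by omega), List.getD_eq_getElem _ _ (by omega)] at h2
  rw [List.getElem_zip]
  exact h2

end Cfsg.Agent.H10.Co2Mult
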