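import Cfsg.Agent.H13.SylMult.Bound
import Cfsg.Agent.H10.Co2Mult.Data

/-! The checks of the certificate at 2 for Co2. -/

set_option autoImplicit false
set_option maxRecDepth 100000
set_option maxHeartbeats 4000000

namespace Cfsg.Agent.H10.Co2Mult

open Cfsg.Agent.H13.SylMult

theorem pc2_ok : pc2.ok cert2 = true := by decide +kernel

theorem small2_ok : (perm2.letters.all (fun k => Nat.blt k perm2.ctx.ns) && perm2.conjs.all (fun k => Nat.blt k perm2.ctx.ns) &&
    perm2.bases.all (fun b => Nat.blt b perm2.ctx.n)) = true := by decide +kernel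

end Cfsg.Agent.H10.Co2Mult
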